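import Mathlib
import Cfsg.Agent.Involution.Dihedral

/-!
# Klein four Sylow 2-subgroups: classes of involutions
-/

namespace CfsgLib.Involution

open Subgroup

variable {G : Type*} [Group G] [Finite G]

/-- The classes of involutions. -/
abbrev InvolutionClass (G : Type*) [Group G] : Type _ :=
  {C : ConjClasses G // ∃ t : G, orderOf t = 2 ∧ ConjClasses.mk t = C}

/-- In a Sylow subgroup that is a four group, involutions conjugate in `G` are equal, or all
involutions are conjugate. -/
theorem klein_fusion (P : Sylow 2 G) (hP : IsKleinFour (P : Subgroup G)) :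
    (Nat.card (InvolutionClass G) = 3 ∧
      Subgroup.normalizer ((P : Subgroup G) : Set G) ≤ centralizer ((P : Subgroup G) : Set G)) ∨
      Nat.card (InvolutionClass G) = 1 := by
  classical
  have : IsMulCommutative (P : Subgroup G) := hP.isMulCommutative
  cases nonempty_fintype (P : Subgroup G)
  have hinv : ∀ a : (P : Subgroup G), a ≠ 1 → orderOf (a : G) = 2 := fun a ha => by
    rw [Subgroup.orderOf_coe]
    exact orderOf_two_of_mul_self (IsKleinFour.mul_self a) ha
  let f : {a : (P : Subgroup G) // a ≠ 1} → InvolutionClass G := fun a =>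
    ⟨ConjClasses.mk (a.1 : G), _, hinv a.1 a.2, rfl⟩
  have hsurj : Function.Surjective f := by
    rintro ⟨C, t, ht, rfl⟩
    have hp : IsPGroup 2 ↥(Subgroup.zpowers t) :=
      IsPGroup.of_card (n := 1) (by rw [Nat.card_zpowers, ht, pow_one])
    obtain ⟨Q, hQ⟩ := hp.exists_le_sylow
    obtain ⟨g, rfl⟩ := MulAction.exists_smul_eq G P Q
    have hm := hQ (Subgroup.mem_zpowers t)
    rw [Sylow.coe_subgroup_smul, Subgroup.mem_pointwise_smul_iff_inv_smul_mem] at hm
    have hm' : g⁻¹ * t * g ∈ (P : Subgroup G) := by simpa using hm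
    refine ⟨⟨⟨_, hm'⟩, fun e => ?_⟩, ?_⟩
    · have e1 : g⁻¹ * t * g = 1 := congrArg Subtype.val e
      refine ne_one_of_orderOf_two ht ?_
      rw [show t = g * (g⁻¹ * t * g) * g⁻¹ by group, e1]
      group
    · exact Subtype.ext (ConjClasses.mk_eq_mk_iff_isConj.mpr (isConj_iff.mpr ⟨g, by group⟩))
  have hthree : Nat.card {a : (P : Subgroup G) // a ≠ 1} = 3 := by
    have h4 : Nat.card (P : Subgroup G) = 4 := hP.card_four
    rw [Nat.card_eq_fintype_card, Fintype.card_subtype_compl, Fintype.card_subtype_eq,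
      ← Nat.card_eq_fintype_card, h4]
  by_cases hinj : Function.Injective f
  · refine Or.inl ⟨(Nat.card_eq_of_bijective f ⟨hinj, hsurj⟩).symm.trans hthree, fun n hn => ?_⟩
    rw [Subgroup.mem_centralizer_iff]
    intro a ha
    rw [eq_comm, ← mul_inv_eq_iff_eq_mul]
    by_cases h1 : (⟨a, ha⟩ : (P : Subgroup G)) = 1
    · rw [show a = 1 from congrArg Subtype.val h1]; simp
    · have hna : n * a * n⁻¹ ∈ (P : Subgroup G) := (mem_normalizer_iff.mp hn a).mp ha
      have h2 : (⟨n * a * n⁻¹, hna⟩ : (P : Subgroup G)) ≠ 1 := fun e => h1 (by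
        ext
        simpa using congrArg Subtype.val e)
      have := @hinj ⟨⟨_, hna⟩, h2⟩ ⟨⟨a, ha⟩, h1⟩
        (Subtype.ext (ConjClasses.mk_eq_mk_iff_isConj.mpr (isConj_iff.mpr ⟨n⁻¹, by group⟩)))
      exact congrArg (fun w : {a : (P : Subgroup G) // a ≠ 1} => (w.1 : G)) this
  · refine Or.inr ?_
    simp only [Function.Injective, not_forall] at hinj
    obtain ⟨⟨a, ha⟩, ⟨b, hb⟩, hab, hne⟩ := hinj
    have hne' : a ≠ b := fun e => hne (Subtype.ext e)
    have hconj : IsConj (a : G) (b : G) := ConjClasses.mk_eq_mk_iff_isConj.mp (congrArg Subtype.val hab)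
    obtain ⟨g, hg⟩ := isConj_iff.mp hconj
    obtain ⟨n, hn, hna⟩ := Sylow.conj_eq_normalizer_conj_of_mem P (a : G) g⁻¹ a.2
      (by simp only [inv_inv]; rw [hg]; exact b.2)
    simp only [inv_inv] at hna
    rw [hg] at hna
    -- `n⁻¹` sends `a` to `b`; it does not send `b` back to `a`
    have hb_eq : n⁻¹ * (a : G) * n = b := hna.symm
    have hnb : n⁻¹ * (b : G) * n ∈ (P : Subgroup G) := by
      have := (mem_normalizer_iff.mp (inv_mem hn) (b : G)).mp b.2
      simpa using this
    set c : (P : Subgroup G) := ⟨_, hnb⟩ with hc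
    have hc1 : c ≠ 1 := fun e => hb (by
      ext
      have e1 : n⁻¹ * (b : G) * n = 1 := congrArg Subtype.val e
      calc (b : G) = n * (n⁻¹ * (b : G) * n) * n⁻¹ := by group
      _ = (1 : G) := by rw [e1]; group)
    have hca : c ≠ a := by
      intro e
      have e2 : n⁻¹ * (b : G) * n = (a : G) := congrArg Subtype.val e
      obtain ⟨k, m, hm, hkm⟩ := Nat.exists_eq_two_pow_mul_odd (orderOf_pos n).ne'
      have hswap : ∀ i : ℕ, (n ^ i)⁻¹ * (a : G) * n ^ i = if Even i then (a : G) else (b : G) := by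
        intro i
        induction i with
        | zero => simp
        | succ i ih =>
          rw [pow_succ, show (n ^ i * n)⁻¹ * (a : G) * (n ^ i * n)
            = n⁻¹ * ((n ^ i)⁻¹ * (a : G) * n ^ i) * n by group, ih]
          by_cases hi : Even i
          · rw [if_pos hi, if_neg (by simpa [Nat.even_add_one] using hi), hb_eq]
          · rw [if_neg hi, if_pos (by simpa [Nat.even_add_one] using hi), e2]
      have hmP : n ^ m ∈ (P : Subgroup G) := by
        have hp : IsPGroup 2 ↥(Subgroup.zpowers (n ^ m)) := by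
          obtain ⟨l, -, hl⟩ := (Nat.dvd_prime_pow Nat.prime_two).mp
            (orderOf_dvd_of_pow_eq_one (x := n ^ m) (n := 2 ^ k)
              (by rw [← pow_mul, mul_comm, ← hkm, pow_orderOf_eq_one]))
          exact IsPGroup.of_card (n := l) (by rw [Nat.card_zpowers, hl])
        have := hp.inf_normalizer_sylow P
        rw [inf_eq_left.mpr (by rw [Subgroup.zpowers_le]; exact pow_mem hn m)] at this
        exact (inf_eq_left.mp this.symm) (Subgroup.mem_zpowers _)
      have hcom : (⟨_, hmP⟩ : (P : Subgroup G)) * a = a * ⟨_, hmP⟩ := mul_comm' _ _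
      have hcom' : n ^ m * (a : G) = (a : G) * n ^ m := congrArg Subtype.val hcom
      have := hswap m
      rw [if_neg (Nat.not_even_iff_odd.mpr hm), mul_assoc, ← hcom', inv_mul_cancel_left] at this
      exact hne' (Subtype.ext this)
    have hcb : c ≠ b := fun e => hne' (Subtype.ext (by
      have e2 : n⁻¹ * (b : G) * n = (b : G) := congrArg Subtype.val e
      calc (a : G) = n * (n⁻¹ * (a : G) * n) * n⁻¹ := by group
      _ = n * (n⁻¹ * (b : G) * n) * n⁻¹ := by rw [hb_eq, e2]
      _ = b := by group))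
    have hall : ∀ d : {x : (P : Subgroup G) // x ≠ 1}, f d = f ⟨a, ha⟩ := by
      have hset : ({⟨a, ha⟩, ⟨b, hb⟩, ⟨c, hc1⟩} : Finset {x : (P : Subgroup G) // x ≠ 1})
          = Finset.univ := by
        apply Finset.eq_univ_of_card
        rw [← Nat.card_eq_fintype_card, hthree, Finset.card_insert_of_notMem,
          Finset.card_insert_of_notMem, Finset.card_singleton]
        · simpa using hcb.symm
        · simp only [Finset.mem_insert, Finset.mem_singleton, Subtype.mk.injEq, not_or]
          exact ⟨hne', hca.symm⟩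
      intro d
      have hd : d ∈ ({⟨a, ha⟩, ⟨b, hb⟩, ⟨c, hc1⟩} : Finset _) := hset ▸ Finset.mem_univ d
      simp only [Finset.mem_insert, Finset.mem_singleton] at hd
      rcases hd with rfl | rfl | rfl
      · rfl
      · exact hab.symm
      · refine Eq.trans ?_ hab.symm
        exact Subtype.ext (ConjClasses.mk_eq_mk_iff_isConj.mpr
          (isConj_iff.mpr ⟨n, by show n * (n⁻¹ * (b : G) * n) * n⁻¹ = b; group⟩))
    refine Nat.card_eq_one_iff_unique.mpr ⟨⟨fun x y => ?_⟩, ⟨f ⟨a, ha⟩⟩⟩
    obtain ⟨u, rfl⟩ := hsurj x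
    obtain ⟨v, rfl⟩ := hsurj y
    rw [hall u, hall v]

/-- A normal complement of a Klein four Sylow subgroup forces three classes. -/
theorem klein_three_of_complement (P : Sylow 2 G) (hP : IsKleinFour (P : Subgroup G)) {N : Subgroup G}
    (hN : N.Normal) (hc : Subgroup.IsComplement' N (P : Subgroup G)) :
    Nat.card (InvolutionClass G) = 3 := by
  classical
  have : IsMulCommutative (P : Subgroup G) := hP.isMulCommutative
  cases nonempty_fintype (P : Subgroup G)
  have hinv : ∀ a : (P : Subgroup G), a ≠ 1 → orderOf (a : G) = 2 := fun a ha => by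
    rw [Subgroup.orderOf_coe]
    exact orderOf_two_of_mul_self (IsKleinFour.mul_self a) ha
  rcases klein_fusion P hP with h | h
  · exact h.1
  · exfalso
    have : Nontrivial (P : Subgroup G) := Finite.one_lt_card_iff_nontrivial.mp (by
      rw [hP.card_four]; norm_num)
    obtain ⟨a, ha⟩ := exists_ne (1 : (P : Subgroup G))
    obtain ⟨b, hb1, hba⟩ : ∃ b : (P : Subgroup G), b ≠ 1 ∧ b ≠ a := by
      by_contra hcon
      push Not at hcon
      have hsub : (Finset.univ : Finset (P : Subgroup G)) ⊆ {1, a} := fun x _ => by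
        simp only [Finset.mem_insert, Finset.mem_singleton]
        exact or_iff_not_imp_left.mpr (hcon x)
      have h1 := Finset.card_le_card hsub
      rw [Finset.card_univ, ← Nat.card_eq_fintype_card, hP.card_four] at h1
      have h2 : ({1, a} : Finset (P : Subgroup G)).card ≤ 2 :=
        (Finset.card_insert_le _ _).trans (by simp)
      omega
    have hsub : Subsingleton (InvolutionClass G) := (Nat.card_eq_one_iff_unique.mp h).1
    have hconj : IsConj (a : G) (b : G) := ConjClasses.mk_eq_mk_iff_isConj.mp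
      (congrArg Subtype.val (hsub.elim (⟨_, _, hinv a ha, rfl⟩ : InvolutionClass G) ⟨_, _, hinv b hb1, rfl⟩))
    obtain ⟨g, hg⟩ := isConj_iff.mp hconj
    obtain ⟨⟨⟨n, hn⟩, ⟨q, hq⟩⟩, hnq, -⟩ := hc.existsUnique g
    simp only at hnq
    have hq' : q * (a : G) * q⁻¹ = (a : G) := by
      have hm : (⟨q, hq⟩ : (P : Subgroup G)) * a = a * ⟨q, hq⟩ := mul_comm' _ _
      rw [mul_inv_eq_iff_eq_mul]
      exact congrArg Subtype.val hm
    have hb : n * (a : G) * n⁻¹ = (b : G) := by
      rw [← hg, ← hnq, mul_inv_rev]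
      calc n * (a : G) * n⁻¹ = n * (q * (a : G) * q⁻¹) * n⁻¹ := by rw [hq']
      _ = _ := by group
    have hmem : n * (a : G) * n⁻¹ * (a : G)⁻¹ ∈ N ⊓ (P : Subgroup G) := by
      refine ⟨?_, ?_⟩
      · rw [SetLike.mem_coe, mul_assoc n, mul_assoc n]
        exact N.mul_mem hn (hN.conj_mem _ (N.inv_mem hn) (a : G))
      · rw [hb]
        exact (P : Subgroup G).mul_mem b.2 ((P : Subgroup G).inv_mem a.2)
    rw [hc.disjoint.eq_bot, Subgroup.mem_bot, hb, mul_inv_eq_one] at hmem
    exact hba (Subtype.ext hmem)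

end CfsgLib.Involution
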