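import Mathlib
import Cfsg.Agent.Involution.Dihedral
import Cfsg.Agent.BaerSuzuki.BrauerFowler
import Cfsg.Agent.BaerSuzuki.Classes
import Cfsg.Agent.Involution.OrderTwelve

/-!
# A simple group has fewer involutions than a third of its order
-/

namespace CfsgLib.Involution

open Subgroup CfsgLib.BaerSuzuki

theorem count_involutions_of_mulEquiv {G H : Type*} [Group G] [Group H] [Fintype H] [DecidableEq H]
    (e : G ≃* H) :
    numInvolutions G = (Finset.univ.filter fun x : H => x * x = 1 ∧ x ≠ 1).card := by
  rw [← Fintype.card_subtype, ← Nat.card_eq_fintype_card]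
  refine Nat.card_congr (Equiv.subtypeEquiv e.toEquiv fun t => ?_)
  constructor
  · intro ht
    have h : orderOf (e t) = 2 := (MulEquiv.orderOf_eq e t).trans ht
    exact ⟨mul_self_of_orderOf_two h, ne_one_of_orderOf_two h⟩
  · intro ht
    exact (MulEquiv.orderOf_eq e t).symm.trans (orderOf_two_of_mul_self ht.1 ht.2)

theorem alt4_involutions :
    (Finset.univ.filter fun x : alternatingGroup (Fin 4) => x * x = 1 ∧ x ≠ 1).card = 3 := by
  decide +kernel

theorem alt5_involutions :
    (Finset.univ.filter fun x : alternatingGroup (Fin 5) => x * x = 1 ∧ x ≠ 1).card = 15 := by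
  decide +kernel

variable {G : Type*} [Group G] [Finite G]

/-- In a simple group of even order above two, fewer than a third of the elements are involutions. -/
theorem involutions_lt_third [IsSimpleGroup G] (heven : Even (Nat.card G)) (hgt : 2 < Nat.card G) :
    3 * numInvolutions G < Nat.card G := by
  classical
  have hnormal : ∀ K : Subgroup G, K.Normal → K = ⊥ ∨ K = ⊤ := fun K hK => hK.eq_bot_or_eq_top
  have hno2 : ∀ K : Subgroup G, K.index ≠ 2 := by
    intro K hK
    rcases hnormal K (Subgroup.normal_of_index_eq_two hK) with rfl | rfl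
    · rw [Subgroup.index_bot] at hK; omega
    · rw [Subgroup.index_top] at hK; omega
  have hnc : Subgroup.center G = ⊥ := by
    refine (hnormal _ inferInstance).resolve_right fun htop => ?_
    obtain ⟨t, ht⟩ := exists_prime_orderOf_dvd_card' (G := G) 2 (even_iff_two_dvd.mp heven)
    have hn : (Subgroup.zpowers t).Normal := ⟨fun a ha g => by
      have hg : g * a = a * g := Subgroup.mem_center_iff.mp (htop ▸ Subgroup.mem_top a) g
      rw [hg, mul_inv_cancel_right]; exact ha⟩
    have hc : Nat.card (Subgroup.zpowers t) = 2 := by rw [Nat.card_zpowers, ht]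
    rcases hnormal _ hn with h | h <;> rw [h] at hc
    · simp at hc
    · rw [Subgroup.card_top] at hc; omega
  by_contra hge
  rw [not_lt] at hge
  have hZ : Odd (Nat.card (Subgroup.center G)) := by rw [hnc]; simp
  obtain ⟨H, hH, hi2 | hbound⟩ := index_bound heven hZ
  · exact hno2 H hi2
  have hi5 : H.index ≤ 5 := by
    by_contra h6
    nlinarith [Nat.card_pos (α := G)]
  have hinj := toPermHom_injective_of_simple H hH
  have hdvd60 : Nat.card G ∣ 60 := by
    cases nonempty_fintype (G ⧸ H)
    let σ : G →* ℤˣ := Equiv.Perm.sign.comp (MulAction.toPermHom G (G ⧸ H))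
    have hσ : σ.ker = ⊤ := by
      refine (hnormal _ inferInstance).resolve_left fun hb => ?_
      have := Nat.card_le_card_of_injective σ ((MonoidHom.ker_eq_bot_iff σ).mp hb)
      rw [Nat.card_eq_fintype_card (α := ℤˣ), Fintype.card_units_int] at this
      omega
    have hle : (MulAction.toPermHom G (G ⧸ H)).range ≤ alternatingGroup (G ⧸ H) := by
      rintro _ ⟨g, rfl⟩
      rw [Equiv.Perm.mem_alternatingGroup]
      have hg : g ∈ σ.ker := by rw [hσ]; exact Subgroup.mem_top g
      exact MonoidHom.mem_ker.mp hg
    have h1 : Nat.card G ∣ Nat.card (alternatingGroup (G ⧸ H)) := by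
      rw [Nat.card_congr (MonoidHom.ofInjective hinj).toEquiv]
      exact Subgroup.card_dvd_of_le hle
    have hq : 2 ≤ Nat.card (G ⧸ H) := by
      have h0 : H.index ≠ 0 := H.index_ne_zero_of_finite
      have h1' : H.index ≠ 1 := fun h => hH (Subgroup.index_eq_one.mp h)
      rw [← Subgroup.index]
      omega
    have : Nontrivial (G ⧸ H) := Finite.one_lt_card_iff_nontrivial.mp hq
    rw [Nat.card_eq_fintype_card (α := alternatingGroup (G ⧸ H)),
      show Fintype.card (alternatingGroup (G ⧸ H)) = (Fintype.card (G ⧸ H)).factorial / 2 by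
        have := two_mul_card_alternatingGroup (α := G ⧸ H)
        rw [Fintype.card_perm] at this
        omega] at h1
    refine h1.trans ?_
    have h5 : Fintype.card (G ⧸ H) ≤ 5 := by rw [← Nat.card_eq_fintype_card]; exact hi5
    have h2 : 2 ≤ Fintype.card (G ⧸ H) := by rw [← Nat.card_eq_fintype_card]; exact hq
    generalize Fintype.card (G ⧸ H) = n at h5 h2 ⊢
    interval_cases n <;> decide
  -- the remaining orders
  have hodd : ∀ k : ℕ, Nat.card G = 2 * k → ¬ Odd k := by
    intro k hk hk'
    obtain ⟨T⟩ : Nonempty (Sylow 2 G) := inferInstance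
    obtain ⟨j, hj⟩ := IsPGroup.iff_card.mp T.isPGroup'
    have hd : Nat.card (T : Subgroup G) ∣ 2 := by
      have h1 := Subgroup.card_subgroup_dvd_card (T : Subgroup G)
      rw [hk] at h1
      refine Nat.Coprime.dvd_of_dvd_mul_right ?_ h1
      rw [hj]
      exact Nat.Coprime.pow_left _ (Nat.coprime_two_left.mpr hk')
    have hT : IsCyclic (T : Subgroup G) := by
      rcases (Nat.dvd_prime Nat.prime_two).mp hd with h | h
      · have : Subsingleton (T : Subgroup G) := (Nat.card_eq_one_iff_unique.mp h).1
        exact isCyclic_of_subsingleton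
      · exact isCyclic_of_prime_card h
    obtain ⟨K, hK⟩ := exists_index_two_of_cyclic heven T hT
    exact hno2 K hK
  have hmem : Nat.card G ∈ Nat.divisors 60 := Nat.mem_divisors.mpr ⟨hdvd60, by norm_num⟩
  rw [show Nat.divisors 60 = {1, 2, 3, 4, 5, 6, 10, 12, 15, 20, 30, 60} from by decide] at hmem
  simp only [Finset.mem_insert, Finset.mem_singleton] at hmem
  have h2dvd := even_iff_two_dvd.mp heven
  rcases hmem with h | h | h | h | h | h | h | h | h | h | h | h
  all_goals try (exfalso; omega)
  · -- order four
    have : IsMulCommutative G := IsPGroup.isMulCommutative_of_card_eq_prime_sq (p := 2) h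
    have htop : Subgroup.center G = ⊤ := by
      rw [eq_top_iff]
      exact fun a _ => Subgroup.mem_center_iff.mpr fun g => mul_comm' g a
    rw [hnc] at htop
    exact absurd htop bot_ne_top
  · exact hodd 3 (by omega) (by decide)
  · exact hodd 5 (by omega) (by decide)
  · -- order twelve
    obtain ⟨e⟩ := order_twelve_alternating h fun z hz hc => by
      rw [hnc, Subgroup.mem_bot] at hc
      exact ne_one_of_orderOf_two hz hc
    have := count_involutions_of_mulEquiv e
    rw [alt4_involutions] at this
    omega
  · -- order twenty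
    have : Fact (Nat.Prime 5) := ⟨by norm_num⟩
    obtain ⟨Q⟩ : Nonempty (Sylow 5 G) := inferInstance
    have hone : Nat.card (Sylow 5 G) = 1 := by
      have h1 := card_sylow_modEq_one 5 G
      have h2 : Nat.card (Sylow 5 G) ∣ 20 := by
        rw [← h, Q.card_eq_index_normalizer]
        exact Subgroup.index_dvd_card _
      have hmem' : Nat.card (Sylow 5 G) ∈ Nat.divisors 20 := Nat.mem_divisors.mpr ⟨h2, by norm_num⟩
      rw [show Nat.divisors 20 = {1, 2, 4, 5, 10, 20} from by decide] at hmem'
      simp only [Finset.mem_insert, Finset.mem_singleton] at hmem'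
      rcases hmem' with h' | h' | h' | h' | h' | h' <;> rw [h'] at h1 ⊢ <;> simp [Nat.ModEq] at h1
    have hQn : (Q : Subgroup G).Normal := by
      have : Subsingleton (Sylow 5 G) := (Nat.card_eq_one_iff_unique.mp hone).1
      exact Q.normal_of_subsingleton
    have hQc : 5 ∣ Nat.card (Q : Subgroup G) := Q.dvd_card_of_dvd_card (h ▸ by norm_num)
    have hQ20 : Nat.card (Q : Subgroup G) ≠ 20 := by
      obtain ⟨j, hj⟩ := IsPGroup.iff_card.mp Q.isPGroup'
      rw [hj]
      rcases j with _ | _ | j
      · norm_num
      · norm_num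
      · have : 25 ≤ 5 ^ (j + 2) :=
          le_trans (by norm_num) (Nat.pow_le_pow_right (by norm_num) (show 2 ≤ j + 2 by omega))
        omega
    rcases hnormal _ hQn with hb | hb <;> rw [hb] at hQc hQ20
    · simp at hQc
    · rw [Subgroup.card_top] at hQ20
      exact hQ20 h
  · exact hodd 15 (by omega) (by decide)
  · -- order sixty
    cases nonempty_fintype (G ⧸ H)
    let e' : G ⧸ H ≃ Fin H.index := Finite.equivFinOfCardEq rfl
    have hle' : Nat.card G ≤ H.index.factorial := card_le_factorial_index H hH
    have hi : H.index = 5 := by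
      by_contra hne
      have : H.index ≤ 4 := by omega
      have := Nat.factorial_le this
      rw [show Nat.factorial 4 = 24 from rfl] at this
      omega
    let e5 : G ⧸ H ≃ Fin 5 := e'.trans (finCongr hi)
    let ψ : G →* Equiv.Perm (Fin 5) :=
      (e5.permCongrHom : _ ≃* _).toMonoidHom.comp (MulAction.toPermHom G (G ⧸ H))
    have hψ : Function.Injective ψ := e5.permCongrHom.injective.comp hinj
    have hrange : ψ.range = alternatingGroup (Fin 5) := by
      refine Equiv.Perm.eq_alternatingGroup_of_index_eq_two ?_
      have h1 := ψ.range.index_mul_card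
      rw [← Nat.card_congr (MonoidHom.ofInjective hψ).toEquiv, h, Nat.card_perm, Nat.card_fin,
        show Nat.factorial 5 = 120 from rfl] at h1
      omega
    have := count_involutions_of_mulEquiv ((MonoidHom.ofInjective hψ).trans (MulEquiv.subgroupCongr hrange))
    rw [alt5_involutions] at this
    omega

end CfsgLib.Involution
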